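import Mathlib
import Cfsg.Prelude.Def_Sporadic_a

/-! A verified exhaustive search for Steiner systems with blocks one larger than the strength. -/

set_option autoImplicit false

namespace CfsgLib.DesignUnique.Search

open Cfsg Finset

variable {n : ℕ}

/-- The set of a mask. -/
def ofm (n : ℕ) (m : ℕ) : Finset (Fin n) := univ.filter fun i => m.testBit i.val

/-- The number of points of a mask. -/
def popn (n : ℕ) (m : ℕ) : ℕ := ((List.range n).filter fun i => m.testBit i).length

theorem mem_ofm {m : ℕ} {i : Fin n} : i ∈ ofm n m ↔ m.testBit i.val = true := by simp [ofm]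

theorem popn_eq (m : ℕ) : popn n m = (ofm n m).card := by
  have h : (List.range n).filter (fun i => m.testBit i) =
      ((List.finRange n).filter fun i : Fin n => m.testBit i.val).map Fin.val := by
    rw [← List.map_coe_finRange_eq_range, List.filter_map]
    rfl
  rw [popn, h, List.length_map, ← List.toFinset_card_of_nodup ((List.nodup_finRange n).filter _)]
  congr 1
  ext i
  simp [ofm]

theorem ofm_and (a b : ℕ) : ofm n (a &&& b) = ofm n a ∩ ofm n b := by
  ext i; simp [mem_ofm, Nat.testBit_and]

/-- Adding a point to a mask. -/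
def addPt (m : ℕ) (x : Fin n) : ℕ := m ||| 2 ^ x.val

theorem ofm_addPt (m : ℕ) (x : Fin n) : ofm n (addPt m x) = insert x (ofm n m) := by
  ext i
  simp only [mem_ofm, addPt, Nat.testBit_or, Nat.testBit_two_pow, Bool.or_eq_true, decide_eq_true_eq,
    mem_insert, Fin.ext_iff]
  exact ⟨fun h => h.elim Or.inr (fun h => Or.inl h.symm), fun h => h.elim (fun h => Or.inr h.symm) Or.inl⟩

/-- Two points lie in the same known blocks. -/
def sameSig (L : List ℕ) (x y : Fin n) : Bool := L.all fun b => b.testBit x.val == b.testBit y.val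

/-- Certificates of the search: a leaf with the number of its map, a choice of the block through the
set `T` with a witness of rejection for each point, and the chain of the cases. -/
inductive Tree : Type
  | leaf (i : ℕ)
  | node (T : ℕ) (wit : List ℕ) (kids : Tree)
  | none
  | child (y nb : ℕ) (sub rest : Tree)

/-- The points of the cases in a chain. -/
def Tree.ys : Tree → List ℕ
  | .child y _ _ rest => y :: rest.ys
  | _ => []

/-- Leaves and choices. -/
def Tree.proper : Tree → Bool
  | .leaf _ => true
  | .node _ _ _ => true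
  | _ => false

/-- The check of a certificate. -/
def Tree.check (n t : ℕ) (leafP : List ℕ → ℕ → Bool) : Tree → List ℕ → ℕ → Bool
  | .leaf i, L, _ => leafP L i
  | .none, _, _ => true
  | .node T wit kids, L, _ =>
    popn n T == t && ((List.finRange n).all fun x =>
      T.testBit x.val || kids.ys.contains x.val ||
        (decide (wit.getD x.val 0 < L.length) &&
          popn n (L.getD (wit.getD x.val 0) 0 &&& addPt T x) == t) ||
        (List.finRange n).any fun y => kids.ys.contains y.val && sameSig L x y) &&
    kids.check n t leafP L T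
  | .child y nb sub rest, L, T =>
    decide (y < n) && !T.testBit y && (nb == T ||| 2 ^ y && sub.proper) && sub.check n t leafP (nb :: L) 0 &&
      rest.check n t leafP L T

theorem steiner_image {α β : Type*} [Fintype α] [DecidableEq α] [Fintype β] [DecidableEq β]
    {t k : ℕ} {B : Set (Finset α)} (hB : IsSteinerSystem t k B) (e : α ≃ β) :
    IsSteinerSystem t k ((fun b => b.image e) '' B) := by
  refine ⟨?_, fun s hs => ?_⟩
  · rintro _ ⟨b, hb, rfl⟩
    rw [card_image_of_injective _ e.injective, hB.1 b hb]
  · obtain ⟨b, ⟨hb, hsb⟩, huniq⟩ :=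
      hB.2 (s.image e.symm) (by rw [card_image_of_injective _ e.symm.injective, hs])
    refine ⟨b.image e, ⟨⟨b, hb, rfl⟩, fun x hx => mem_image.2
      ⟨e.symm x, hsb (mem_image_of_mem _ hx), e.apply_symm_apply x⟩⟩, ?_⟩
    rintro _ ⟨⟨c, hc, rfl⟩, hsc⟩
    have : c = b := huniq c ⟨hc, fun x hx => by
      obtain ⟨y, hy, rfl⟩ := mem_image.1 hx
      obtain ⟨z, hz, hzy⟩ := mem_image.1 (hsc hy)
      rwa [← hzy, e.symm_apply_apply]⟩
    rw [this]

theorem image_swap_ofm {L : List ℕ} {x y : Fin n} (h : sameSig L x y = true) {b : ℕ} (hb : b ∈ L) :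
    (ofm n b).image (Equiv.swap x y) = ofm n b := by
  simp only [sameSig, List.all_eq_true, beq_iff_eq] at h
  have hxy := h b hb
  ext i
  rw [mem_image]
  constructor
  · rintro ⟨j, hj, rfl⟩
    rw [mem_ofm] at hj ⊢
    by_cases h1 : j = x
    · subst h1; rw [Equiv.swap_apply_left, ← hxy]; exact hj
    by_cases h2 : j = y
    · subst h2; rw [Equiv.swap_apply_right, hxy]; exact hj
    rw [Equiv.swap_apply_of_ne_of_ne h1 h2]; exact hj
  · intro hi
    refine ⟨Equiv.swap x y i, ?_, Equiv.swap_apply_self x y i⟩
    rw [mem_ofm] at hi ⊢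
    by_cases h1 : i = x
    · subst h1; rw [Equiv.swap_apply_left, ← hxy]; exact hi
    by_cases h2 : i = y
    · subst h2; rw [Equiv.swap_apply_right, hxy]; exact hi
    rw [Equiv.swap_apply_of_ne_of_ne h1 h2]; exact hi

/-- Every system is, up to relabelling, at one of the leaves. -/
theorem tree_sound {t : ℕ} {leafP : List ℕ → ℕ → Bool} : ∀ (tr : Tree) (L : List ℕ) (T : ℕ),
    tr.check n t leafP L T = true →
    (∀ B : Set (Finset (Fin n)), IsSteinerSystem t (t + 1) B → (∀ b ∈ L, ofm n b ∈ B) →
      tr.ys = [] → tr ≠ .none →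
      ∃ π : Equiv.Perm (Fin n), ∃ L' i, leafP L' i = true ∧ ∀ b ∈ L', ofm n b ∈ (fun c => c.image π) '' B) ∧
    (∀ B : Set (Finset (Fin n)), IsSteinerSystem t (t + 1) B → (∀ b ∈ L, ofm n b ∈ B) →
      ∀ y : Fin n, y.val ∈ tr.ys → ofm n (addPt T y) ∈ B →
      ∃ π : Equiv.Perm (Fin n), ∃ L' i, leafP L' i = true ∧ ∀ b ∈ L', ofm n b ∈ (fun c => c.image π) '' B) := by
  intro tr
  induction tr with
  | leaf i =>
    intro L T h
    exact ⟨fun B _ hL _ _ => ⟨1, L, i, h, fun b hb => ⟨_, hL b hb, by simp⟩⟩,
      fun B _ _ y hy _ => by simp [Tree.ys] at hy⟩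
  | none =>
    intro L T _
    exact ⟨fun B _ _ _ h => absurd rfl h, fun B _ _ y hy _ => by simp [Tree.ys] at hy⟩
  | node T' wit kids ih =>
    intro L T h
    simp only [Tree.check, Bool.and_eq_true, beq_iff_eq, List.all_eq_true, Bool.or_eq_true,
      decide_eq_true_eq, List.any_eq_true, List.contains_iff_mem] at h
    obtain ⟨⟨hT, hall⟩, hk⟩ := h
    refine ⟨fun B hB hL _ _ => ?_, fun B _ _ y hy _ => by simp [Tree.ys] at hy⟩
    have hTc : (ofm n T').card = t := by rw [← popn_eq]; exact hT
    obtain ⟨c, ⟨hc, hTsub⟩, -⟩ := hB.2 (ofm n T') hTc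
    obtain ⟨x, hx⟩ := card_eq_one.1 (show (c \ ofm n T').card = 1 by
      rw [card_sdiff_of_subset hTsub, hTc, hB.1 c hc]; omega)
    have hxc : x ∈ c \ ofm n T' := by rw [hx]; exact mem_singleton_self x
    have hceq : ofm n (addPt T' x) = c := by
      rw [ofm_addPt, insert_eq, ← hx, sdiff_union_of_subset hTsub]
    have hxT : T'.testBit x.val = false := by
      have := (mem_sdiff.1 hxc).2
      rw [mem_ofm] at this
      simpa using this
    rcases hall x (List.mem_finRange x) with ((h1 | h1) | ⟨hlt, h1⟩) | ⟨y, -, hy, hsig⟩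
    · rw [hxT] at h1; exact absurd h1 (by simp)
    · exact (ih L T' hk).2 B hB hL x h1 (hceq ▸ hc)
    · exfalso
      have hbmem : L.getD (wit.getD x.val 0) 0 ∈ L := by
        rw [List.getD_eq_getElem _ _ hlt]; exact List.getElem_mem hlt
      rw [popn_eq, ofm_and, hceq] at h1
      have heq : ofm n (L.getD (wit.getD x.val 0) 0) = c :=
        (hB.2 _ h1).unique ⟨hL _ hbmem, inter_subset_left⟩ ⟨hc, inter_subset_right⟩
      rw [heq, inter_self, hB.1 c hc] at h1
      omega
    · have hyT : T'.testBit y.val = false := by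
        have hys : ∀ k : Tree, ∀ L, k.check n t leafP L T' = true → y.val ∈ k.ys → T'.testBit y.val = false := by
          intro k
          induction k with
          | child z nb sub rest _ ihr =>
            intro L hk hy
            simp only [Tree.check, Bool.and_eq_true, Bool.not_eq_true'] at hk
            rcases List.mem_cons.1 hy with rfl | hy
            · exact hk.1.1.1.2
            · exact ihr L hk.2 hy
          | _ => intro L _ hy; simp [Tree.ys] at hy
        exact hys kids L hk hy
      set σ : Equiv.Perm (Fin n) := Equiv.swap x y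
      have hnew : ofm n (addPt T' y) ∈ (fun b => b.image σ) '' B := by
        refine ⟨c, hc, ?_⟩
        show c.image σ = ofm n (addPt T' y)
        rw [← hceq, ofm_addPt, ofm_addPt, image_insert, show σ x = y from Equiv.swap_apply_left x y]
        congr 1
        refine (image_congr fun i hi => ?_).trans image_id
        have hi' : T'.testBit i.val = true := mem_ofm.1 hi
        exact Equiv.swap_apply_of_ne_of_ne (fun e => by rw [e, hxT] at hi'; simp at hi')
          (fun e => by rw [e, hyT] at hi'; simp at hi')
      obtain ⟨π, L', i, hi, hsub⟩ := (ih L T' hk).2 _ (steiner_image hB σ)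
        (fun b hb => ⟨_, hL b hb, image_swap_ofm hsig hb⟩) y hy hnew
      refine ⟨σ.trans π, L', i, hi, fun b hb => ?_⟩
      obtain ⟨_, ⟨d, hd, rfl⟩, hdb⟩ := hsub b hb
      exact ⟨d, hd, by rw [← hdb]; simp only [image_image]; rfl⟩
  | child z nb sub rest ihs ihr =>
    intro L T h
    simp only [Tree.check, Bool.and_eq_true, beq_iff_eq, decide_eq_true_eq] at h
    obtain ⟨⟨⟨⟨hz, -⟩, hnb, hprop⟩, hs⟩, hr⟩ := h
    refine ⟨fun B _ _ h _ => by simp [Tree.ys] at h, fun B hB hL y hy hyB => ?_⟩
    rcases List.mem_cons.1 hy with e | hy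
    · have hcons : ∀ b ∈ nb :: L, ofm n b ∈ B := by
        intro b hb
        rcases List.mem_cons.1 hb with rfl | hb
        · rw [hnb, ← e]; exact hyB
        · exact hL b hb
      cases sub with
      | child _ _ _ _ => simp [Tree.proper] at hprop
      | none => simp [Tree.proper] at hprop
      | leaf i => exact (ihs _ 0 hs).1 B hB hcons rfl (by simp)
      | node _ _ _ => exact (ihs _ 0 hs).1 B hB hcons rfl (by simp)
    · exact (ihr L T hr).2 B hB hL y hy hyB

end CfsgLib.DesignUnique.Search
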