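import Cfsg.Agent.DesignUnique.Search
import Cfsg.Agent.DesignUnique.SmallData
import Cfsg.Agent.Eq.Def_Sporadic_a

/-! Uniqueness and automorphisms of the Steiner systems on 11 and 12 points. -/

set_option autoImplicit false

open scoped Pointwise

namespace CfsgLib.DesignUnique.SmallSys

open Cfsg Finset CfsgLib.DesignUnique.Search

variable {n : ℕ}

/-- The family of a list of masks. -/
def fam (n : ℕ) (L : List ℕ) : Set (Finset (Fin n)) := {s | ∃ m ∈ L, ofm n m = s}

/-- A table carries one mask to another. -/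
def agree (n : ℕ) (σ : List ℕ) (m m' : ℕ) : Bool :=
  (List.range n).all fun i => m.testBit i == m'.testBit (σ.getD i 0)

/-- A table is a permutation. -/
def isPerm (n : ℕ) (σ : List ℕ) : Bool :=
  (List.range n).all fun i => decide (σ.getD i 0 < n) &&
    (List.range n).all fun j => i == j || !(σ.getD i 0 == σ.getD j 0)

/-- The masks of the `t`-sets. -/
def tsets (n t : ℕ) : List ℕ := (List.range (2 ^ n)).filter fun m => popn n m == t

/-- A leaf is a system and a copy of the standard one. -/
def leafOK (n t : ℕ) (std : List ℕ) (L : List ℕ) (σ : List ℕ) : Bool :=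
  isPerm n σ && (L.all fun m => std.any fun m' => agree n σ m m') &&
    (std.all fun m' => L.any fun m => agree n σ m m') &&
    ((tsets n t).all fun u => L.any fun m => u &&& m == u)

theorem exists_perm {σ : List ℕ} (h : isPerm n σ = true) :
    ∃ g : Equiv.Perm (Fin n), ∀ i : Fin n, (g i).val = σ.getD i.val 0 := by
  simp only [isPerm, List.all_eq_true, List.mem_range, Bool.and_eq_true, decide_eq_true_eq,
    Bool.or_eq_true, beq_iff_eq, Bool.not_eq_true', beq_eq_false_iff_ne] at h
  let f : Fin n → Fin n := fun i => ⟨σ.getD i.val 0, (h i.val i.isLt).1⟩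
  have hf : Function.Injective f := fun i j e => by
    rcases (h i.val i.isLt).2 j.val j.isLt with he | he
    · exact Fin.ext he
    · exact absurd (congrArg Fin.val e) he
  exact ⟨Equiv.ofBijective f (Finite.injective_iff_bijective.1 hf), fun i => rfl⟩

theorem image_agree {σ : List ℕ} {g : Equiv.Perm (Fin n)} (hg : ∀ i, (g i).val = σ.getD i.val 0)
    {m m' : ℕ} (h : agree n σ m m' = true) : (ofm n m).image g = ofm n m' := by
  simp only [agree, List.all_eq_true, List.mem_range, beq_iff_eq] at h
  ext j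
  obtain ⟨i, rfl⟩ := g.surjective j
  rw [g.injective.mem_finset_image, mem_ofm, mem_ofm, hg, h _ i.isLt]

theorem ofm_inj {a b : ℕ} (ha : a < 2 ^ n) (hb : b < 2 ^ n) (h : ofm n a = ofm n b) : a = b := by
  refine Nat.eq_of_testBit_eq fun i => ?_
  by_cases hi : i < n
  · have := Finset.ext_iff.1 h ⟨i, hi⟩
    rw [mem_ofm, mem_ofm] at this
    exact Bool.eq_iff_iff.2 this
  · have hp : 2 ^ n ≤ 2 ^ i := Nat.pow_le_pow_right (by norm_num) (by omega)
    rw [Nat.testBit_lt_two_pow (lt_of_lt_of_le ha hp), Nat.testBit_lt_two_pow (lt_of_lt_of_le hb hp)]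

/-- The mask of a set. -/
def maskOf (s : Finset (Fin n)) : ℕ := Nat.ofBits fun i : Fin n => decide (i ∈ s)

theorem ofm_maskOf (s : Finset (Fin n)) : ofm n (maskOf s) = s := by
  ext i
  rw [mem_ofm, maskOf, Nat.testBit_ofBits_lt _ i.val i.isLt]
  simp

theorem classify (t : ℕ) (std : List ℕ) (maps : List (List ℕ)) (tr : Tree)
    (hproper : tr.proper = true)
    (hok : tr.check n t (fun L i => leafOK n t std L (maps.getD i [])) [] 0 = true)
    {B : Set (Finset (Fin n))} (hB : IsSteinerSystem t (t + 1) B) :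
    ∃ e : Fin n ≃ Fin n, (fun b => b.image e) '' B = fam n std := by
  have hys : tr.ys = [] ∧ tr ≠ .none := by
    cases tr <;> simp [Tree.proper, Tree.ys] at hproper ⊢
  obtain ⟨π, L, i, hσ, hsub⟩ :=
    (tree_sound tr [] 0 hok).1 B hB (fun b hb => nomatch hb) hys.1 hys.2
  simp only [leafOK, Bool.and_eq_true, List.all_eq_true, List.any_eq_true, beq_iff_eq] at hσ
  obtain ⟨⟨⟨hperm, h1⟩, h2⟩, h3⟩ := hσ
  obtain ⟨g, hg⟩ := exists_perm hperm
  have hB' := steiner_image hB π
  refine ⟨π.trans g, Set.ext fun s => ⟨?_, ?_⟩⟩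
  · rintro ⟨b, hb, rfl⟩
    obtain ⟨u, hu, huc⟩ := exists_subset_card_eq
      (show t ≤ (b.image π).card by rw [card_image_of_injective _ π.injective, hB.1 b hb]; omega)
    obtain ⟨m, hm, hum⟩ := h3 (maskOf u) (List.mem_filter.2 ⟨List.mem_range.2 (Nat.ofBits_lt_two_pow _),
      beq_iff_eq.2 (by rw [popn_eq, ofm_maskOf]; exact huc)⟩)
    have humem : u ⊆ ofm n m := fun i hi => by
      rw [mem_ofm]
      have hbit : (maskOf u).testBit i.val = true := by rw [← mem_ofm, ofm_maskOf]; exact hi
      rw [← hum, Nat.testBit_and, Bool.and_eq_true] at hbit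
      exact hbit.2
    have heq : b.image π = ofm n m := (hB'.2 u huc).unique ⟨⟨b, hb, rfl⟩, hu⟩ ⟨hsub m hm, humem⟩
    obtain ⟨m', hm', hagree⟩ := h1 m hm
    exact ⟨m', hm', by rw [← image_agree hg hagree, ← heq, image_image]; rfl⟩
  · rintro ⟨m', hm', rfl⟩
    obtain ⟨m, hm, hagree⟩ := h2 m' hm'
    obtain ⟨b, hb, hbm⟩ := hsub m hm
    exact ⟨b, hb, by rw [← image_agree hg hagree, ← hbm, image_image]; rfl⟩

/-- The checks on the automorphism tables. -/
def autosOK (n : ℕ) (std : List ℕ) (autos : List (List (List ℕ))) : Bool :=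
  (List.range autos.length).all fun k => (List.range n).all fun j =>
    decide (j < k) || (autos.getD k []).any fun σ => isPerm n σ &&
      ((List.range k).all fun i => σ.getD i 0 == i) && (σ.getD k 0 == j) &&
      (std.all fun m => std.any fun m' => agree n σ m m')

theorem exists_aut_prefix {std : List ℕ} {autos : List (List (List ℕ))}
    (hok : autosOK n std autos = true) :
    ∀ k (hk : k ≤ n), k ≤ autos.length → ∀ y : Fin k → Fin n, Function.Injective y →
      ∃ g ∈ setSystemAut (fam n std), ∀ i : Fin k, g (Fin.castLE hk i) = y i := by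
  intro k
  induction k with
  | zero => exact fun _ _ _ _ => ⟨1, Subgroup.one_mem _, fun i => i.elim0⟩
  | succ k ih =>
    intro hk hka y hy
    obtain ⟨g, hg, hgy⟩ := ih (by omega) (by omega) (fun i => y i.castSucc)
      (hy.comp (Fin.castSucc_injective _))
    set z := g⁻¹ (y (Fin.last k)) with hz
    have hgz : g z = y (Fin.last k) := g.apply_symm_apply _
    have hzk : ¬ z.val < k := fun h => by
      have h1 := hgy ⟨z.val, h⟩
      rw [show Fin.castLE (by omega : k ≤ n) (⟨z.val, h⟩ : Fin k) = z from Fin.ext rfl, hgz] at h1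
      have h2 := congrArg Fin.val (hy h1)
      simp at h2
      omega
    simp only [autosOK, List.all_eq_true, List.mem_range, Bool.or_eq_true, decide_eq_true_eq,
      List.any_eq_true, Bool.and_eq_true, beq_iff_eq] at hok
    obtain hlt | ⟨σ, -, ⟨⟨hperm, hfix⟩, hkj⟩, hstd⟩ := hok k (by omega) z.val z.isLt
    · exact absurd hlt hzk
    obtain ⟨a, ha⟩ := exists_perm hperm
    have haut : a ∈ setSystemAut (fam n std) := by
      refine MulAction.mem_stabilizer_iff.mpr
        (Set.eq_of_subset_of_ncard_le ?_ (by rw [Set.ncard_smul_set]) (Set.toFinite _))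
      rintro _ ⟨_, ⟨m, hm, rfl⟩, rfl⟩
      obtain ⟨m', hm', h⟩ := hstd m hm
      exact ⟨m', hm', by rw [← image_agree ha h]; rfl⟩
    refine ⟨g * a, Subgroup.mul_mem _ hg haut, fun i => ?_⟩
    rw [Equiv.Perm.mul_apply]
    refine Fin.lastCases ?_ (fun j => ?_) i
    · rw [show a (Fin.castLE hk (Fin.last k)) = z from Fin.ext (by rw [ha]; simpa using hkj), hgz]
    · rw [show a (Fin.castLE hk j.castSucc) = Fin.castLE (by omega : k ≤ n) j from
        Fin.ext (by rw [ha]; simpa using hfix j.val j.isLt)]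
      exact hgy j

theorem exists_aut_map {std : List ℕ} {autos : List (List (List ℕ))} (hok : autosOK n std autos = true)
    {t : ℕ} (htn : t ≤ n) (ht : t ≤ autos.length) (x y : Fin t ↪ Fin n) :
    ∃ g ∈ setSystemAut (fam n std), ∀ i, g (x i) = y i := by
  obtain ⟨a, ha, hax⟩ := exists_aut_prefix hok t htn ht x x.injective
  obtain ⟨b, hb, hby⟩ := exists_aut_prefix hok t htn ht y y.injective
  exact ⟨b * a⁻¹, Subgroup.mul_mem _ hb (Subgroup.inv_mem _ ha), fun i => by
    rw [← hax i, ← hby i, Equiv.Perm.mul_apply]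
    exact congrArg b (a.symm_apply_apply _)⟩

/-- The check that only the identity fixes the first block pointwise. -/
def rigidOK (n t : ℕ) (std : List ℕ) : Bool :=
  let H := 2 ^ (t + 1) - 1
  let key := std.filter fun m => popn n (m &&& H) == t - 1
  let free := (List.range n).filter fun i => decide (t < i)
  std.contains H && (std.all fun m => decide (m < 2 ^ n)) &&
  (key.all fun m => free.all fun x => free.all fun a =>
    !(decide (x ≠ a) && m.testBit x && m.testBit a) || m == ((m &&& H) ||| 2 ^ x) ||| 2 ^ a) &&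
  free.all fun x => free.all fun y => x == y || !(free.all fun a => x == a || free.any fun b =>
    key.all fun m => !(m.testBit x && m.testBit a) || std.contains (((m &&& H) ||| 2 ^ y) ||| 2 ^ b))

theorem eq_one_of_fix_base {t : ℕ} {std : List ℕ} (hok : rigidOK n t std = true) (htn : t < n)
    (hB : IsSteinerSystem t (t + 1) (fam n std)) {g : Equiv.Perm (Fin n)}
    (hg : g ∈ setSystemAut (fam n std)) (hfix : ∀ i : Fin n, i.val < t → g i = i) : g = 1 := by
  simp only [rigidOK, List.contains_iff_mem, Bool.and_eq_true, List.all_eq_true, List.mem_filter,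
    List.mem_range, decide_eq_true_eq, Bool.or_eq_true, Bool.not_eq_true', beq_iff_eq,
    List.any_eq_true, and_imp] at hok
  obtain ⟨⟨⟨hH, hlt⟩, hshape⟩, hrigid⟩ := hok
  have hmem : ∀ s ∈ fam n std, g • s ∈ fam n std := fun s hs => by
    have := Set.smul_mem_smul_set (a := g) hs
    rwa [MulAction.mem_stabilizer_iff.mp hg] at this
  have hHbit : ∀ i : Fin n, (2 ^ (t + 1) - 1).testBit i.val = true ↔ i.val ≤ t := by
    intro i; rw [Nat.testBit_two_pow_sub_one]; simp
  -- the first block is fixed
  have hH' : g • ofm n (2 ^ (t + 1) - 1) = ofm n (2 ^ (t + 1) - 1) := by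
    obtain ⟨s, hs, hsc⟩ : ∃ s : Finset (Fin n), s = univ.filter (fun i : Fin n => i.val < t) ∧ s.card = t :=
      ⟨_, rfl, by rw [Fin.card_filter_val_lt]; omega⟩
    refine (hB.2 s hsc).unique ⟨hmem _ ⟨_, hH, rfl⟩, fun i hi => ?_⟩ ⟨⟨_, hH, rfl⟩, fun i hi => ?_⟩
    · subst hs
      have hit := (mem_filter.1 hi).2
      rw [← hfix i hit]
      exact smul_mem_smul_finset (mem_ofm.2 ((hHbit i).2 hit.le))
    · subst hs
      exact mem_ofm.2 ((hHbit i).2 (mem_filter.1 hi).2.le)
  have hlow : ∀ i : Fin n, i.val ≤ t → g i = i := by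
    intro i hi
    by_cases h : i.val < t
    · exact hfix i h
    have hgi : (g i).val ≤ t := by
      rw [← hHbit, ← mem_ofm, ← hH']
      exact smul_mem_smul_finset (mem_ofm.2 ((hHbit i).2 hi))
    by_cases h2 : (g i).val < t
    · exact g.injective (hfix _ h2)
    · exact Fin.ext (by omega)
  have hhigh : ∀ i : Fin n, t < i.val → t < (g i).val := fun i hi => by
    by_contra hle
    have := g.injective (hlow _ (not_lt.1 hle))
    rw [this] at hle
    exact hle hi
  ext i : 1
  by_cases hi : i.val ≤ t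
  · exact hlow i hi
  rw [not_le] at hi
  rcases hrigid i.val i.isLt hi (g i).val (g i).isLt (hhigh i hi) with h | h
  · exact Fin.ext h.symm
  exfalso
  rw [← Bool.not_eq_true, List.all_eq_true] at h
  apply h
  intro a ha
  simp only [List.mem_filter, List.mem_range, decide_eq_true_eq] at ha
  simp only [Bool.or_eq_true, beq_iff_eq, List.any_eq_true]
  by_cases hia : i.val = a
  · exact Or.inl hia
  right
  refine ⟨(g ⟨a, ha.1⟩).val, ?_, ?_⟩
  · simp only [List.mem_filter, List.mem_range, decide_eq_true_eq]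
    exact ⟨(g ⟨a, ha.1⟩).isLt, hhigh ⟨a, ha.1⟩ ha.2⟩
  simp only [List.all_eq_true, Bool.or_eq_true, Bool.not_eq_true', List.mem_filter,
    List.contains_iff_mem, beq_iff_eq]
  rintro m ⟨hm, hmk⟩
  by_cases hb : (m.testBit i.val && m.testBit a) = true
  · right
    rw [Bool.and_eq_true] at hb
    have hmshape := (hshape m hm hmk i.val i.isLt hi a ha.1 ha.2).resolve_left (by
      rw [hb.1, hb.2]; simp [hia])
    obtain ⟨m', hm', he⟩ := hmem _ ⟨m, hm, rfl⟩
    have hbound : ((m &&& (2 ^ (t + 1) - 1)) ||| 2 ^ (g i).val) ||| 2 ^ (g ⟨a, ha.1⟩).val < 2 ^ n := by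
      refine Nat.or_lt_two_pow (Nat.or_lt_two_pow (lt_of_le_of_lt Nat.and_le_left (hlt m hm)) ?_) ?_ <;>
        exact Nat.pow_lt_pow_right (by norm_num) (Fin.isLt _)
    have : m' = ((m &&& (2 ^ (t + 1) - 1)) ||| 2 ^ (g i).val) ||| 2 ^ (g ⟨a, ha.1⟩).val := by
      refine ofm_inj (hlt m' hm') hbound ?_
      rw [he]
      ext j
      obtain ⟨k, rfl⟩ := g.surjective j
      rw [show g k ∈ g • ofm n m ↔ k ∈ ofm n m from smul_mem_smul_finset_iff g, mem_ofm, mem_ofm]
      conv_lhs => rw [hmshape]
      simp only [Nat.testBit_or, Nat.testBit_and, Nat.testBit_two_pow, Bool.or_eq_true,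
        Bool.and_eq_true, decide_eq_true_eq, hHbit]
      have h1 : i.val = k.val ↔ (g i).val = (g k).val := by
        rw [← Fin.ext_iff, ← Fin.ext_iff, g.injective.eq_iff]
      have h2 : a = k.val ↔ (g ⟨a, ha.1⟩).val = (g k).val := by
        rw [← Fin.ext_iff, g.injective.eq_iff, Fin.ext_iff]
      rw [h1, h2]
      by_cases hk : k.val ≤ t
      · rw [hlow k hk]
      · have := hhigh k (not_le.1 hk)
        constructor <;> rintro ((⟨-, h'⟩ | h') | h')
        all_goals first
          | omega
          | exact Or.inl (Or.inr h')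
          | exact Or.inr h'
    exact this ▸ hm'
  · left; simpa using hb

end CfsgLib.DesignUnique.SmallSys
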