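import Cfsg.Agent.DesignUnique.Small
import Cfsg.Agent.DesignUnique.SmallTree

/-! The case analysis for the system on 11 points, checked by the kernel. -/

set_option autoImplicit false

namespace CfsgLib.DesignUnique

open Search SmallSys SmallData

theorem classify11 : tree11.proper = true ∧
    tree11.check 11 4 (fun L i => leafOK 11 4 std11 L (maps11.getD i [])) [] 0 = true := by
  decide +kernel

end CfsgLib.DesignUnique
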