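import Cfsg.Agent.DesignUnique.Small
import Cfsg.Agent.DesignUnique.SmallCls11
import Cfsg.Agent.DesignUnique.SmallCls12
import Cfsg.Agent.DesignUnique.Aut

/-! The systems S(4,5,11) and S(5,6,12). -/

set_option autoImplicit false
set_option Elab.async false

open scoped Pointwise

namespace CfsgLib.DesignUnique

open Cfsg Search SmallSys SmallData

theorem autos11_ok : autosOK 11 std11 autos11 = true := by decide +kernel

/-- One level of the check of the automorphisms of S(5,6,12). -/
def autoLevel12 (k : ℕ) : Bool :=
  (List.range 12).all fun j => decide (j < k) || (autos12.getD k []).any fun σ => isPerm 12 σ &&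
    ((List.range k).all fun i => σ.getD i 0 == i) && (σ.getD k 0 == j) &&
    (std12.all fun m => std12.any fun m' => agree 12 σ m m')

theorem autoLevel12_0 : autoLevel12 0 = true := by decide +kernel

theorem autoLevel12_1 : autoLevel12 1 = true := by decide +kernel

theorem autoLevel12_2 : autoLevel12 2 = true := by decide +kernel

theorem autoLevel12_3 : autoLevel12 3 = true := by decide +kernel

theorem autoLevel12_4 : autoLevel12 4 = true := by decide +kernel

theorem autos12_ok : autosOK 12 std12 autos12 = true := by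
  have hlen : autos12.length = 5 := by decide +kernel
  show (List.range autos12.length).all autoLevel12 = true
  rw [hlen]
  refine List.all_eq_true.2 fun k hk => ?_
  rcases (show k = 0 ∨ k = 1 ∨ k = 2 ∨ k = 3 ∨ k = 4 by have := List.mem_range.1 hk; omega) with
    rfl | rfl | rfl | rfl | rfl
  · exact autoLevel12_0
  · exact autoLevel12_1
  · exact autoLevel12_2
  · exact autoLevel12_3
  · exact autoLevel12_4

theorem rigid11 : rigidOK 11 4 std11 = true := by decide +kernel

theorem rigid12 : rigidOK 12 5 std12 = true := by decide +kernel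

variable {α : Type*} [Fintype α] [DecidableEq α]

theorem exists_equiv_small {n t : ℕ} {std : List ℕ} {maps : List (List ℕ)} {tr : Tree}
    (hok : tr.proper = true ∧ tr.check n t (fun L i => leafOK n t std L (maps.getD i [])) [] 0 = true)
    (hα : Fintype.card α = n) {B : Set (Finset α)} (hB : IsSteinerSystem t (t + 1) B) :
    ∃ e : α ≃ Fin n, (fun b => b.image e) '' B = fam n std := by
  let ι := Fintype.equivFinOfCardEq hα
  obtain ⟨e, he⟩ := classify t std maps tr hok.1 hok.2 (Search.steiner_image hB ι)
  refine ⟨ι.trans e, ?_⟩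
  rw [← he, Set.image_image]
  refine Set.image_congr fun b _ => ?_
  rw [Finset.image_image]
  rfl

theorem aut_small {n t : ℕ} {std : List ℕ} {autos : List (List (List ℕ))}
    (hauto : autosOK n std autos = true) (hrig : rigidOK n t std = true) (htn : t < n)
    (ht : t ≤ autos.length) {B : Set (Finset α)} (hB : IsSteinerSystem t (t + 1) B) (e : α ≃ Fin n)
    (he : (fun b => b.image e) '' B = fam n std) :
    MulAction.IsMultiplyPretransitive (setSystemAut B) α t ∧
      ∀ x : Fin t ↪ α, MulAction.stabilizer (setSystemAut B) x = ⊥ := by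
  have hstd : IsSteinerSystem t (t + 1) (fam n std) := he ▸ Search.steiner_image hB e
  refine ⟨pretransitive_transport e he (exists_aut_map hauto htn.le ht), fun x => ?_⟩
  rw [Subgroup.eq_bot_iff_forall]
  intro σ hσ
  let base : Fin t ↪ Fin n := ⟨Fin.castLE htn.le, Fin.castLE_injective _⟩
  obtain ⟨a, ha, hax⟩ := exists_aut_map hauto htn.le ht base (x.trans e.toEmbedding)
  have hτ : e.permCongrHom (σ : Equiv.Perm α) ∈ setSystemAut (fam n std) :=
    (map_aut e he) ▸ Subgroup.mem_map_of_mem _ σ.2
  have hconj : a⁻¹ * e.permCongrHom (σ : Equiv.Perm α) * a = 1 := by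
    refine eq_one_of_fix_base hrig htn hstd
      (Subgroup.mul_mem _ (Subgroup.mul_mem _ (Subgroup.inv_mem _ ha) hτ) ha) fun i hi => ?_
    have h1 : a i = e (x ⟨i.val, hi⟩) := hax ⟨i.val, hi⟩
    have h2 : (σ : Equiv.Perm α) (x ⟨i.val, hi⟩) = x ⟨i.val, hi⟩ :=
      congrArg (fun z : Fin t ↪ α => z ⟨i.val, hi⟩) (MulAction.mem_stabilizer_iff.mp hσ)
    have h3 : e.permCongrHom (σ : Equiv.Perm α) (e (x ⟨i.val, hi⟩)) = e (x ⟨i.val, hi⟩) := by
      simp [Equiv.permCongrHom, h2]
    rw [Equiv.Perm.mul_apply, Equiv.Perm.mul_apply, h1, h3, ← h1]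
    exact a.symm_apply_apply i
  have : e.permCongrHom (σ : Equiv.Perm α) = 1 := by
    have := congrArg (fun k => a * k * a⁻¹) hconj
    simpa [mul_assoc] using this
  exact Subtype.ext (e.permCongrHom.injective (this.trans e.permCongrHom.map_one.symm))

end CfsgLib.DesignUnique
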